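import Mathlib
import Cfsg.Agent.Lib.Helper14.EichlerGen
import Cfsg.Agent.Lib.Helper14.Forms
import Cfsg.Agent.Lib.Helper44.Char2Forms

/-!
# Project OMG (S2415): `PΩ⁻_{2m}(q)`, `m ≥ 4`, is generated by two elements — interface

Tools (helper14): `Cfsg.Agent.Lib.Helper14.eichMat Q u w` is the matrix of the Eichler
transformation `E(u,w) : x ↦ x + B(u,x) w - (B(w,x) + Q(w) B(u,x)) u` (`u` singular, `w ⊥ u`,
`B = QuadraticMap.polar ⇑Q`), with `eichMat_mulVec`, `eichMat_mul`, `eichMat_conj`,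
`eichMat_smul_left`, `eichMat_smul_self`, `eichMat_zero_right`, `eichElt`, `eich_mem_omega`,
`omega_eq_closure_eich`, `mkIsom`, `isom_ext`, `isom_preserves`, `minusQF`, `minus_polar_*`.

`HasE Q K u w` : the subgroup `K` contains the Eichler transformation `E(u,w)`.
Minus-type space: index type `MI k = (Fin k ⊕ Fin k) ⊕ Fin 2`, basis `eV i`, `fV i`, `zV j`,
form `QM k F a b = Σ x_i y_i + (z₀² + a z₀ z₁ + b z₁²)`.
One closed `Prop` per package; paper proofs in the plan note (topic S2415).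
-/

set_option autoImplicit false
open scoped Matrix

namespace Cfsg.Agent.Lib.Helper77.OMG

open Cfsg.Agent.Lib.Helper14

universe u

/-! ## Generic part (any quadratic form on `ι → F`) -/

section Generic

variable {ι : Type} [Fintype ι] [DecidableEq ι] {F : Type u} [Field F]

/-- The matrix of an isometry. -/
abbrev mt {Q : (ι → F) → F} (g : ↥(Cfsg.isometryGroup F Q)) : Matrix ι ι F :=
  ((g : Matrix.GeneralLinearGroup ι F) : Matrix ι ι F)

/-- The subgroup `K` contains the Eichler transformation `E(u,w)`. -/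
def HasE (Q : QuadraticForm F (ι → F)) (K : Subgroup ↥(Cfsg.isometryGroup F ⇑Q))
    (u w : ι → F) : Prop :=
  ∃ g ∈ K, mt g = eichMat Q u w

/-- The calculus of Eichler transformations inside a subgroup `K`. -/
structure EBasics (Q : QuadraticForm F (ι → F)) (K : Subgroup ↥(Cfsg.isometryGroup F ⇑Q)) :
    Prop where
  zero : ∀ u : ι → F, HasE Q K u 0
  self : ∀ (u : ι → F) (c : F), Q u = 0 → HasE Q K u (c • u)
  add : ∀ u w w' : ι → F, Q u = 0 → QuadraticMap.polar ⇑Q u w = 0 →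
    QuadraticMap.polar ⇑Q u w' = 0 → HasE Q K u w → HasE Q K u w' → HasE Q K u (w + w')
  neg : ∀ u w : ι → F, Q u = 0 → QuadraticMap.polar ⇑Q u w = 0 → HasE Q K u w →
    HasE Q K u (-w)
  smul : ∀ (u w : ι → F) (c : F), HasE Q K (c • u) w ↔ HasE Q K u (c • w)
  symm : ∀ u w : ι → F, Q u = 0 → Q w = 0 → QuadraticMap.polar ⇑Q u w = 0 → HasE Q K u w →
    HasE Q K w (-u)
  conj : ∀ (u w : ι → F) (h : ↥(Cfsg.isometryGroup F ⇑Q)), h ∈ K → HasE Q K u w →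
    HasE Q K (mt h *ᵥ u) (mt h *ᵥ w)
  comm : ∀ u w u' w' : ι → F, Q u = 0 → Q u' = 0 → QuadraticMap.polar ⇑Q u u' = 0 →
    QuadraticMap.polar ⇑Q u w = 0 → QuadraticMap.polar ⇑Q u' w = 0 →
    QuadraticMap.polar ⇑Q u w' = 0 → QuadraticMap.polar ⇑Q u' w' = 0 →
    HasE Q K u w → HasE Q K u' w' → HasE Q K u (QuadraticMap.polar ⇑Q w w' • u')

end Generic

/-- [EB] the calculus of Eichler transformations: zero, additivity, inverse, scalars, symmetry,
conjugation and the commutator formula `[E(u,w), E(u',w')] = E(u, B(w,w') u')`. -/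
def PkgEB : Prop :=
  ∀ (ι : Type) [Fintype ι] [DecidableEq ι] (F : Type u) [Field F] (Q : QuadraticForm F (ι → F))
    (K : Subgroup ↥(Cfsg.isometryGroup F ⇑Q)), EBasics Q K

/-- [TRANS] a subgroup containing the two opposite unipotent radicals `{E(e,w)}`, `{E(f,w)}`
(`w ⊥ e, f`) of a hyperbolic pair `(e,f)` is transitive on singular points. -/
def PkgTrans : Prop :=
  ∀ (ι : Type) [Fintype ι] [DecidableEq ι] (F : Type u) [Field F] (Q : QuadraticForm F (ι → F)),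
    (QuadraticMap.polarBilin Q).Nondegenerate →
    ∀ (K : Subgroup ↥(Cfsg.isometryGroup F ⇑Q)) (e f : ι → F), Q e = 0 → Q f = 0 →
    QuadraticMap.polar ⇑Q e f = 1 →
    (∃ z : ι → F, QuadraticMap.polar ⇑Q e z = 0 ∧ QuadraticMap.polar ⇑Q f z = 0 ∧ Q z ≠ 0) →
    (∀ w : ι → F, QuadraticMap.polar ⇑Q e w = 0 → QuadraticMap.polar ⇑Q f w = 0 →
      HasE Q K e w ∧ HasE Q K f w) →
    ∀ p : ι → F, p ≠ 0 → Q p = 0 → ∃ g ∈ K, ∃ c : F, c ≠ 0 ∧ mt g *ᵥ p = c • e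

/-- [BRIDGE] a subgroup transitive on singular points and containing one full unipotent
radical contains `Ω`. -/
def PkgBridge : Prop :=
  ∀ (ι : Type) [Fintype ι] [DecidableEq ι] (F : Type u) [Field F] [Fintype F]
    (Q : QuadraticForm F (ι → F)), (QuadraticMap.polarBilin Q).Nondegenerate →
    5 ≤ Fintype.card ι →
    ∀ (K : Subgroup ↥(Cfsg.isometryGroup F ⇑Q)) (e f : ι → F), Q e = 0 →
    QuadraticMap.polar ⇑Q e f = 1 →
    (∀ w : ι → F, QuadraticMap.polar ⇑Q e w = 0 → QuadraticMap.polar ⇑Q f w = 0 →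
      HasE Q K e w) →
    (∀ p : ι → F, p ≠ 0 → Q p = 0 → ∃ g ∈ K, ∃ c : F, c ≠ 0 ∧ mt g *ᵥ p = c • e) →
    Cfsg.Omega F ⇑Q ≤ K

/-! ## The minus-type space -/

/-- The index type of the minus-type space of Witt index `k`. -/
abbrev MI (k : ℕ) : Type := (Fin k ⊕ Fin k) ⊕ Fin 2

/-- The minus-type form `Σ x_i y_i + (z₀² + a z₀ z₁ + b z₁²)` as a `QuadraticForm`. -/
noncomputable abbrev QM (k : ℕ) (F : Type u) [Field F] (a b : F) : QuadraticForm F (MI k → F) :=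
  minusQF k F a b

/-- The basis vector `e_i`. -/
abbrev eV {k : ℕ} {F : Type u} [Field F] (i : Fin k) : MI k → F :=
  Pi.single (Sum.inl (Sum.inl i)) 1

/-- The basis vector `f_i`. -/
abbrev fV {k : ℕ} {F : Type u} [Field F] (i : Fin k) : MI k → F :=
  Pi.single (Sum.inl (Sum.inr i)) 1

/-- The basis vector `z_j` of the anisotropic plane. -/
abbrev zV {k : ℕ} {F : Type u} [Field F] (j : Fin 2) : MI k → F :=
  Pi.single (Sum.inr j) 1

/-- The Levi matrix `diag(g, g⁻ᵀ, 1)`. -/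
noncomputable def leviMat {k : ℕ} {F : Type u} [Field F] (g : Matrix (Fin k) (Fin k) F) :
    Matrix (MI k) (MI k) F :=
  Matrix.fromBlocks (Matrix.fromBlocks g 0 0 (g⁻¹)ᵀ) 0 0 1

section Minus

variable {k : ℕ} {F : Type u} [Field F] (a b : F)

/-- `K` contains the root groups `X_{ij} = {E(e_i, c f_j)}`, `i ≠ j`. -/
def HX (K : Subgroup ↥(Cfsg.isometryGroup F ⇑(QM k F a b))) : Prop :=
  ∀ i j : Fin k, i ≠ j → ∀ c : F, HasE (QM k F a b) K (eV i) (c • fV j)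

/-- `K` contains the root groups `Y_{ij} = {E(e_i, c e_j)}`, `i ≠ j`. -/
def HY (K : Subgroup ↥(Cfsg.isometryGroup F ⇑(QM k F a b))) : Prop :=
  ∀ i j : Fin k, i ≠ j → ∀ c : F, HasE (QM k F a b) K (eV i) (c • eV j)

/-- `K` contains the root groups `Z_{ij} = {E(f_i, c f_j)}`, `i ≠ j`. -/
def HZ (K : Subgroup ↥(Cfsg.isometryGroup F ⇑(QM k F a b))) : Prop :=
  ∀ i j : Fin k, i ≠ j → ∀ c : F, HasE (QM k F a b) K (fV i) (c • fV j)

/-- `K` contains the short root elements `E(e_i, c z_j)` and `E(f_i, c z_j)`. -/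
def HW (K : Subgroup ↥(Cfsg.isometryGroup F ⇑(QM k F a b))) (i : Fin k) : Prop :=
  ∀ (j : Fin 2) (c : F), HasE (QM k F a b) K (eV i) (c • zV j) ∧
    HasE (QM k F a b) K (fV i) (c • zV j)

/-- The mixing element `u`: it fixes `e_i, f_i` for `i ≠ ia`, moves `e_ia` and `f_ia` off
themselves, and the images of `e_ia, f_ia` together with `e_ia, f_ia` span `⟨e_ia, f_ia⟩ ⊥ W`. -/
structure UGood (ia : Fin k) (u : ↥(Cfsg.isometryGroup F ⇑(QM k F a b))) : Prop where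
  fixE : ∀ i : Fin k, i ≠ ia → mt u *ᵥ (eV i : MI k → F) = eV i
  fixF : ∀ i : Fin k, i ≠ ia → mt u *ᵥ (fV i : MI k → F) = fV i
  alpha : QuadraticMap.polar ⇑(QM k F a b) (mt u *ᵥ (fV ia : MI k → F)) (fV ia) ≠ 0
  beta : QuadraticMap.polar ⇑(QM k F a b) (mt u *ᵥ (eV ia : MI k → F)) (eV ia) ≠ 0
  span : ∀ j : Fin 2, ∃ c₁ c₂ c₃ c₄ : F, (zV j : MI k → F) =
    c₁ • eV ia + c₂ • fV ia + c₃ • (mt u *ᵥ (eV ia : MI k → F)) +
      c₄ • (mt u *ᵥ (fV ia : MI k → F))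

/-! ### Basic formulas -/

theorem QM_coe : ⇑(QM k F a b) = Cfsg.quadFormMinus k F a b := minusQF_coe k F a b

theorem B_eV (i : Fin k) (x : MI k → F) :
    QuadraticMap.polar ⇑(QM k F a b) (eV i) x = x (Sum.inl (Sum.inr i)) := by
  rw [QM_coe]; exact minus_polar_inl k F a b i x

theorem B_fV (i : Fin k) (x : MI k → F) :
    QuadraticMap.polar ⇑(QM k F a b) (fV i) x = x (Sum.inl (Sum.inl i)) := by
  rw [QM_coe]; exact minus_polar_inr k F a b i x

theorem B_zV0 (x : MI k → F) :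
    QuadraticMap.polar ⇑(QM k F a b) (zV 0) x = 2 * x (Sum.inr 0) + a * x (Sum.inr 1) := by
  rw [QM_coe]; exact minus_polar_zero k F a b x

theorem B_zV1 (x : MI k → F) :
    QuadraticMap.polar ⇑(QM k F a b) (zV 1) x = a * x (Sum.inr 0) + 2 * b * x (Sum.inr 1) := by
  rw [QM_coe]; exact minus_polar_one k F a b x

theorem Q_eV (i : Fin k) : QM k F a b (eV i) = 0 := by
  have h := congrFun (QM_coe (k := k) a b) (eV i)
  rw [h]
  simp [Cfsg.quadFormMinus]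

theorem Q_fV (i : Fin k) : QM k F a b (fV i) = 0 := by
  have h := congrFun (QM_coe (k := k) a b) (fV i)
  rw [h]
  simp [Cfsg.quadFormMinus]

theorem Q_zV0 : QM k F a b (zV 0) = 1 := by
  have h := congrFun (QM_coe (k := k) a b) (zV 0)
  rw [h]
  simp [Cfsg.quadFormMinus]

theorem Q_zV1 : QM k F a b (zV 1) = b := by
  have h := congrFun (QM_coe (k := k) a b) (zV 1)
  rw [h]
  simp [Cfsg.quadFormMinus]

/-- the value of the form in coordinates -/
theorem QM_apply (x : MI k → F) : QM k F a b x =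
    (∑ i : Fin k, x (Sum.inl (Sum.inl i)) * x (Sum.inl (Sum.inr i))) +
      (x (Sum.inr 0) ^ 2 + a * x (Sum.inr 0) * x (Sum.inr 1) + b * x (Sum.inr 1) ^ 2) := by
  have h := congrFun (QM_coe (k := k) a b) x
  rw [h]
  rfl

end Minus

/-! ## Packages for the minus-type space -/

/-- [GENS3] (pure `SL_k`, `k ≥ 3`) two generators `g₁, g₂` of `SL_k(F)`; `g₁` is supported on the
top left `2 × 2` block and `g₁ ^ A = 1` with `A = q - 1` for `q > 3`, `A = q` for `q ≤ 3`. -/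
def PkgGens3 : Prop :=
  ∀ (F : Type u) [Field F] [Fintype F] (k : ℕ), 3 ≤ k →
    ∃ (g₁ g₂ : Matrix.SpecialLinearGroup (Fin k) F) (A : ℕ),
      Subgroup.closure ({g₁, g₂} : Set (Matrix.SpecialLinearGroup (Fin k) F)) = ⊤ ∧
      g₁ ^ A = 1 ∧ (3 < Fintype.card F → A = Fintype.card F - 1) ∧
      (Fintype.card F ≤ 3 → A = Fintype.card F) ∧
      ∀ i : Fin k, 2 ≤ i.val →
        (∀ j, (g₁ : Matrix (Fin k) (Fin k) F) i j = (1 : Matrix (Fin k) (Fin k) F) i j) ∧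
        (∀ j, (g₁ : Matrix (Fin k) (Fin k) F) j i = (1 : Matrix (Fin k) (Fin k) F) j i)

/-- [LEVI] the Levi embedding `SL_k → O⁻_{2k+2}`, `g ↦ diag(g, g⁻ᵀ, 1)`. -/
def PkgLevi : Prop :=
  ∀ (k : ℕ) (F : Type u) [Field F] [Fintype F] (a b : F),
    (∀ z₁ z₂ : F, z₁ ^ 2 + a * z₁ * z₂ + b * z₂ ^ 2 = 0 → z₁ = 0 ∧ z₂ = 0) →
    ∃ L : Matrix.SpecialLinearGroup (Fin k) F →* ↥(Cfsg.isometryGroup F ⇑(QM k F a b)),
      ∀ g : Matrix.SpecialLinearGroup (Fin k) F,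
        mt (L g) = leviMat (g : Matrix (Fin k) (Fin k) F)

/-- [LEVIX] the Levi image of the transvection `1 + c E_{ij}` is `E(e_i, -c f_j)`. -/
def PkgLeviX : Prop :=
  ∀ (k : ℕ) (F : Type u) [Field F] (a b : F) (i j : Fin k) (hij : i ≠ j) (c : F),
    leviMat ((Matrix.SpecialLinearGroup.transvection hij c :
      Matrix.SpecialLinearGroup (Fin k) F) : Matrix (Fin k) (Fin k) F) =
      eichMat (QM k F a b) (eV i) (-c • fV j)

/-- [LEVIFIX] the Levi matrix fixes the `z_j`, and fixes `e_i, f_i` when row `i` and column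
`i` of `g` are standard. -/
def PkgLeviFix : Prop :=
  ∀ (k : ℕ) (F : Type u) [Field F] (g : Matrix.SpecialLinearGroup (Fin k) F),
    (∀ j : Fin 2, leviMat (g : Matrix (Fin k) (Fin k) F) *ᵥ (zV j : MI k → F) = zV j) ∧
    ∀ i : Fin k,
      (∀ j, (g : Matrix (Fin k) (Fin k) F) i j = (1 : Matrix (Fin k) (Fin k) F) i j) →
      (∀ j, (g : Matrix (Fin k) (Fin k) F) j i = (1 : Matrix (Fin k) (Fin k) F) j i) →
      leviMat (g : Matrix (Fin k) (Fin k) F) *ᵥ (eV i : MI k → F) = eV i ∧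
      leviMat (g : Matrix (Fin k) (Fin k) F) *ᵥ (fV i : MI k → F) = fV i

/-- [LEVIOM] the Levi subgroup lies in `Ω`. -/
def PkgLeviOm : Prop :=
  ∀ (k : ℕ) (F : Type u) [Field F] [Fintype F] (a b : F),
    (∀ z₁ z₂ : F, z₁ ^ 2 + a * z₁ * z₂ + b * z₂ ^ 2 = 0 → z₁ = 0 ∧ z₂ = 0) → 2 ≤ k →
    ∀ L : Matrix.SpecialLinearGroup (Fin k) F →* ↥(Cfsg.isometryGroup F ⇑(QM k F a b)),
      (∀ g : Matrix.SpecialLinearGroup (Fin k) F,
        mt (L g) = leviMat (g : Matrix (Fin k) (Fin k) F)) →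
      ∀ g, L g ∈ Cfsg.Omega F ⇑(QM k F a b)

/-- [COMM] an isometry `σ` fixing `e_ia, f_ia, z_0, z_1` commutes with an isometry `u` fixing
all `e_i, f_i`, `i ≠ ia`. -/
def PkgComm : Prop :=
  ∀ (k : ℕ) (F : Type u) [Field F] [Fintype F] (a b : F),
    (∀ z₁ z₂ : F, z₁ ^ 2 + a * z₁ * z₂ + b * z₂ ^ 2 = 0 → z₁ = 0 ∧ z₂ = 0) →
    ∀ (ia : Fin k) (σ u : ↥(Cfsg.isometryGroup F ⇑(QM k F a b))),
      (∀ i : Fin k, i ≠ ia → mt u *ᵥ (eV i : MI k → F) = eV i ∧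
        mt u *ᵥ (fV i : MI k → F) = fV i) →
      mt σ *ᵥ (eV ia : MI k → F) = eV ia → mt σ *ᵥ (fV ia : MI k → F) = fV ia →
      (∀ j : Fin 2, mt σ *ᵥ (zV j : MI k → F) = zV j) →
      σ * u = u * σ

/-- [UBIG] a unipotent mixing element (an Eichler transformation): in `Ω`, of order dividing
`q`, good. (All `q`; used for `q > 3`.) -/
def PkgUBig : Prop :=
  ∀ (k : ℕ) (F : Type u) [Field F] [Fintype F] (a b : F),
    (∀ z₁ z₂ : F, z₁ ^ 2 + a * z₁ * z₂ + b * z₂ ^ 2 = 0 → z₁ = 0 ∧ z₂ = 0) → 2 ≤ k →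
    ∀ ia : Fin k, ∃ u : ↥(Cfsg.isometryGroup F ⇑(QM k F a b)),
      u ∈ Cfsg.Omega F ⇑(QM k F a b) ∧ u ^ Fintype.card F = 1 ∧ UGood a b ia u

/-- [U2] `q = 2`: a good mixing element of order `5` in `Ω`. -/
def PkgU2 : Prop :=
  ∀ (k : ℕ) (F : Type u) [Field F] [Fintype F] (a b : F),
    (∀ z₁ z₂ : F, z₁ ^ 2 + a * z₁ * z₂ + b * z₂ ^ 2 = 0 → z₁ = 0 ∧ z₂ = 0) → 2 ≤ k →
    Fintype.card F = 2 →
    ∀ ia : Fin k, ∃ u : ↥(Cfsg.isometryGroup F ⇑(QM k F a b)),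
      u ∈ Cfsg.Omega F ⇑(QM k F a b) ∧ u ^ 5 = 1 ∧ UGood a b ia u

/-- [U3] `q = 3`: a good mixing element of order `2` in `Ω`. -/
def PkgU3 : Prop :=
  ∀ (k : ℕ) (F : Type u) [Field F] [Fintype F] (a b : F),
    (∀ z₁ z₂ : F, z₁ ^ 2 + a * z₁ * z₂ + b * z₂ ^ 2 = 0 → z₁ = 0 ∧ z₂ = 0) → 2 ≤ k →
    Fintype.card F = 3 →
    ∀ ia : Fin k, ∃ u : ↥(Cfsg.isometryGroup F ⇑(QM k F a b)),
      u ∈ Cfsg.Omega F ⇑(QM k F a b) ∧ u ^ 2 = 1 ∧ UGood a b ia u

/-- [Y] with the `X` root groups and a good `u`, the subgroup contains all `Y` root groups. -/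
def PkgY : Prop :=
  ∀ (k : ℕ) (F : Type u) [Field F] (a b : F), 3 ≤ k →
    ∀ (K : Subgroup ↥(Cfsg.isometryGroup F ⇑(QM k F a b))) (ia : Fin k)
      (u : ↥(Cfsg.isometryGroup F ⇑(QM k F a b))), u ∈ K → UGood a b ia u → HX a b K → HY a b K

/-- [Z] with the `X` root groups and a good `u`, the subgroup contains all `Z` root groups. -/
def PkgZ : Prop :=
  ∀ (k : ℕ) (F : Type u) [Field F] (a b : F), 3 ≤ k →
    ∀ (K : Subgroup ↥(Cfsg.isometryGroup F ⇑(QM k F a b))) (ia : Fin k)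
      (u : ↥(Cfsg.isometryGroup F ⇑(QM k F a b))), u ∈ K → UGood a b ia u → HX a b K → HZ a b K

/-- [W] with `X, Y, Z` and a good `u`, the subgroup contains the short root elements
`E(e_i, c z_j)`, `E(f_i, c z_j)` for `i ≠ ia`. -/
def PkgW : Prop :=
  ∀ (k : ℕ) (F : Type u) [Field F] (a b : F)
    (K : Subgroup ↥(Cfsg.isometryGroup F ⇑(QM k F a b))) (ia : Fin k)
    (u : ↥(Cfsg.isometryGroup F ⇑(QM k F a b))), u ∈ K → UGood a b ia u →
    HX a b K → HY a b K → HZ a b K → ∀ i : Fin k, i ≠ ia → HW a b K i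

/-- [RAD] `X, Y, Z` and the short root elements at `i` give the two full unipotent radicals
`{E(e_i, w)}`, `{E(f_i, w)}`, `w ⊥ e_i, f_i`. -/
def PkgRad : Prop :=
  ∀ (k : ℕ) (F : Type u) [Field F] (a b : F)
    (K : Subgroup ↥(Cfsg.isometryGroup F ⇑(QM k F a b))) (i : Fin k),
    HX a b K → HY a b K → HZ a b K → HW a b K i →
    ∀ w : MI k → F, QuadraticMap.polar ⇑(QM k F a b) (eV i) w = 0 →
      QuadraticMap.polar ⇑(QM k F a b) (fV i) w = 0 →
      HasE (QM k F a b) K (eV i) w ∧ HasE (QM k F a b) K (fV i) w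

end Cfsg.Agent.Lib.Helper77.OMG
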