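import Mathlib
import Cfsg.Agent.Lib.Helper77.OMG.Defs

/-!
# Project OMG (S2415): assembly

`main_of`: `PΩ⁻_{2m}(q)`, `m ≥ 4`, is generated by two elements, from the packages of
`Cfsg.Agent.Lib.Helper77.OMG.Defs`.
-/

set_option autoImplicit false
open scoped Matrix

namespace Cfsg.Agent.Lib.Helper77.OMG

open Cfsg.Agent.Lib.Helper14

universe u

/-- commuting elements of coprime orders lie in the subgroup generated by their product. -/
theorem mem_of_coprime_pair {G : Type*} [Group G] (K : Subgroup G) (x y : G) (A B : ℕ)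
    (hc : Nat.Coprime A B) (hxy : Commute x y) (hx : x ^ A = 1) (hy : y ^ B = 1)
    (h : x * y ∈ K) : x ∈ K ∧ y ∈ K := by
  have h1 : (x * y) ^ B = x ^ B := by rw [hxy.mul_pow, hy, mul_one]
  have h2 : (x * y) ^ A = y ^ A := by rw [hxy.mul_pow, hx, one_mul]
  have hxB : x ^ B ∈ K := h1 ▸ K.pow_mem h B
  have hyA : y ^ A ∈ K := h2 ▸ K.pow_mem h A
  have e : (1 : ℤ) = A * Nat.gcdA A B + B * Nat.gcdB A B := by
    have h3 := Nat.gcd_eq_gcd_ab A B
    rw [hc.gcd_eq_one] at h3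
    exact_mod_cast h3
  constructor
  · have e1 : x = (x ^ B) ^ (Nat.gcdB A B) := by
      rw [← zpow_natCast, ← zpow_mul]
      conv_lhs => rw [← zpow_one x, e, zpow_add, zpow_mul, zpow_natCast, hx, one_zpow, one_mul]
    rw [e1]
    exact K.zpow_mem hxB _
  · have e1 : y = (y ^ A) ^ (Nat.gcdA A B) := by
      rw [← zpow_natCast, ← zpow_mul]
      conv_lhs =>
        rw [← zpow_one y, e, zpow_add, zpow_mul (y) (B : ℤ), zpow_natCast, hy, one_zpow, mul_one]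
    rw [e1]
    exact K.zpow_mem hyA _

/-- transport of two-generation along an equality of forms -/
theorem twoGen_congr {ι : Type} [Fintype ι] [DecidableEq ι] {F : Type u} [Field F]
    (Qf Qg : (ι → F) → F) (h : Qf = Qg)
    (H : ∃ g h : Cfsg.POmega F Qf, Subgroup.closure ({g, h} : Set (Cfsg.POmega F Qf)) = ⊤) :
    ∃ g h : Cfsg.POmega F Qg, Subgroup.closure ({g, h} : Set (Cfsg.POmega F Qg)) = ⊤ := by
  subst h
  exact H

/-- **OMG main theorem** (in terms of `QM`). -/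
theorem main_of (hEB : PkgEB.{u}) (hGens : PkgGens3.{u}) (hLevi : PkgLevi.{u})
    (hLX : PkgLeviX.{u}) (hLFix : PkgLeviFix.{u}) (hLOm : PkgLeviOm.{u}) (hComm : PkgComm.{u})
    (hUB : PkgUBig.{u}) (hU2 : PkgU2.{u}) (hU3 : PkgU3.{u}) (hY : PkgY.{u}) (hZ : PkgZ.{u})
    (hW : PkgW.{u}) (hRad : PkgRad.{u}) (hTrans : PkgTrans.{u}) (hBridge : PkgBridge.{u})
    (F : Type u) [Field F] [Fintype F] (k : ℕ) (hk : 3 ≤ k) (a b : F)
    (hab : ∀ z₁ z₂ : F, z₁ ^ 2 + a * z₁ * z₂ + b * z₂ ^ 2 = 0 → z₁ = 0 ∧ z₂ = 0) :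
    ∃ g h : Cfsg.POmega F ⇑(QM k F a b),
      Subgroup.closure ({g, h} : Set (Cfsg.POmega F ⇑(QM k F a b))) = ⊤ := by
  have hQ := Cfsg.Agent.Lib.Helper44.minusQF_nondegenerate_all k F a b hab
  obtain ⟨L, hL⟩ := hLevi k F a b hab
  obtain ⟨g₁, g₂, A, hgen, hg₁A, hAbig, hAsmall, hstd⟩ := hGens F k hk
  obtain ⟨ia, hia⟩ : ∃ ia : Fin k, ia.val = 2 := ⟨⟨2, by omega⟩, rfl⟩
  obtain ⟨i0, hi0⟩ : ∃ i0 : Fin k, i0.val = 0 := ⟨⟨0, by omega⟩, rfl⟩
  have h0a : i0 ≠ ia := by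
    intro h; rw [h] at hi0; omega
  -- the mixing element
  obtain ⟨u, huΩ, Bn, hcop, huB, hgood⟩ : ∃ u : ↥(Cfsg.isometryGroup F ⇑(QM k F a b)),
      u ∈ Cfsg.Omega F ⇑(QM k F a b) ∧ ∃ Bn : ℕ, Nat.Coprime A Bn ∧ u ^ Bn = 1 ∧
        UGood a b ia u := by
    by_cases hbig : 3 < Fintype.card F
    · obtain ⟨u, h1, h2, h3⟩ := hUB k F a b hab (by omega) ia
      refine ⟨u, h1, Fintype.card F, ?_, h2, h3⟩
      rw [hAbig hbig]
      obtain ⟨n, hn⟩ : ∃ n, Fintype.card F = n + 1 := ⟨Fintype.card F - 1, by omega⟩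
      rw [hn, Nat.add_sub_cancel]
      exact (Nat.coprime_self_add_right).mpr (Nat.coprime_one_right _)
    · rw [not_lt] at hbig
      have hcard2 : 2 ≤ Fintype.card F := Fintype.one_lt_card
      have hcases : Fintype.card F = 2 ∨ Fintype.card F = 3 := by omega
      rcases hcases with h2 | h3
      · obtain ⟨u, h1, h5, hg⟩ := hU2 k F a b hab (by omega) h2 ia
        refine ⟨u, h1, 5, ?_, h5, hg⟩
        rw [hAsmall hbig, h2]
        decide
      · obtain ⟨u, h1, h5, hg⟩ := hU3 k F a b hab (by omega) h3 ia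
        refine ⟨u, h1, 2, ?_, h5, hg⟩
        rw [hAsmall hbig, h3]
        decide
  obtain ⟨x, hx⟩ : ∃ x : ↥(Cfsg.isometryGroup F ⇑(QM k F a b)), x = L g₁ := ⟨_, rfl⟩
  have hfix := hLFix k F g₁
  have hfa := hfix.2 ia (hstd ia (by omega)).1 (hstd ia (by omega)).2
  have hcomm : x * u = u * x := by
    rw [hx]
    refine hComm k F a b hab ia (L g₁) u (fun i hi => ⟨hgood.fixE i hi, hgood.fixF i hi⟩)
      ?_ ?_ ?_
    · rw [hL]; exact hfa.1
    · rw [hL]; exact hfa.2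
    · intro j
      rw [hL]; exact hfix.1 j
  have hxA : x ^ A = 1 := by rw [hx, ← map_pow, hg₁A, map_one]
  obtain ⟨K, hK⟩ : ∃ K : Subgroup ↥(Cfsg.isometryGroup F ⇑(QM k F a b)),
      K = Subgroup.closure {x * u, L g₂} := ⟨_, rfl⟩
  have haK : x * u ∈ K := by rw [hK]; exact Subgroup.subset_closure (by simp)
  have hbK : L g₂ ∈ K := by rw [hK]; exact Subgroup.subset_closure (by simp)
  obtain ⟨hxK, huK⟩ := mem_of_coprime_pair K x u A Bn hcop hcomm hxA huB haK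
  have hLK : ∀ g, L g ∈ K := by
    have h1 : Subgroup.closure ({g₁, g₂} : Set (Matrix.SpecialLinearGroup (Fin k) F)) ≤
        K.comap L := by
      rw [Subgroup.closure_le]
      rintro y (rfl | rfl)
      · show L y ∈ K
        rw [← hx]; exact hxK
      · exact hbK
    intro g
    have h2 : g ∈ K.comap L := h1 (by rw [hgen]; exact Subgroup.mem_top g)
    exact h2
  have hX : HX a b K := by
    intro i j hij c
    refine ⟨L (Matrix.SpecialLinearGroup.transvection hij (-c)), hLK _, ?_⟩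
    rw [hL, hLX k F a b i j hij (-c), neg_neg]
  have hYK : HY a b K := hY k F a b hk K ia u huK hgood hX
  have hZK : HZ a b K := hZ k F a b hk K ia u huK hgood hX
  have hWK : HW a b K i0 := hW k F a b K ia u huK hgood hX hYK hZK i0 h0a
  have hrad := hRad k F a b K i0 hX hYK hZK hWK
  have hef : QuadraticMap.polar ⇑(QM k F a b) (eV i0) (fV i0) = 1 := by
    rw [B_eV]; simp
  have hz : ∃ z : MI k → F, QuadraticMap.polar ⇑(QM k F a b) (eV i0) z = 0 ∧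
      QuadraticMap.polar ⇑(QM k F a b) (fV i0) z = 0 ∧ QM k F a b z ≠ 0 := by
    refine ⟨zV 0, ?_, ?_, ?_⟩
    · rw [B_eV]; simp
    · rw [B_fV]; simp
    · rw [Q_zV0]; exact one_ne_zero
  have htr := hTrans (MI k) F (QM k F a b) hQ K (eV i0) (fV i0) (Q_eV a b i0) (Q_fV a b i0)
    hef hz hrad
  have hcard : 5 ≤ Fintype.card (MI k) := by
    simp only [Fintype.card_sum, Fintype.card_fin]
    omega
  have hΩ : Cfsg.Omega F ⇑(QM k F a b) ≤ K :=
    hBridge (MI k) F (QM k F a b) hQ hcard K (eV i0) (fV i0) (Q_eV a b i0) hef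
      (fun w h1 h2 => (hrad w h1 h2).1) htr
  have hLΩ : ∀ g, L g ∈ Cfsg.Omega F ⇑(QM k F a b) := hLOm k F a b hab (by omega) L hL
  have haΩ : x * u ∈ Cfsg.Omega F ⇑(QM k F a b) :=
    Subgroup.mul_mem _ (hx ▸ hLΩ g₁) huΩ
  have hbΩ := hLΩ g₂
  obtain ⟨A', hA'⟩ : ∃ A' : ↥(Cfsg.Omega F ⇑(QM k F a b)), A' = ⟨x * u, haΩ⟩ := ⟨_, rfl⟩
  obtain ⟨B', hB'⟩ : ∃ B' : ↥(Cfsg.Omega F ⇑(QM k F a b)), B' = ⟨L g₂, hbΩ⟩ := ⟨_, rfl⟩
  have hmap : (Subgroup.closure ({A', B'} : Set ↥(Cfsg.Omega F ⇑(QM k F a b)))).map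
      (Cfsg.Omega F ⇑(QM k F a b)).subtype = K := by
    rw [MonoidHom.map_closure, Set.image_pair, hK, hA', hB']
    rfl
  have htop : Subgroup.closure ({A', B'} : Set ↥(Cfsg.Omega F ⇑(QM k F a b))) = ⊤ := by
    rw [eq_top_iff]
    intro y _
    have hy : (y : ↥(Cfsg.isometryGroup F ⇑(QM k F a b))) ∈ K := hΩ y.2
    rw [← hmap] at hy
    obtain ⟨z, hz, hzy⟩ := hy
    have e : z = y := Subtype.ext hzy
    rwa [← e]
  refine ⟨QuotientGroup.mk A', QuotientGroup.mk B', ?_⟩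
  have hmap2 : Subgroup.map (QuotientGroup.mk' (Subgroup.center
        ↥(Cfsg.Omega F ⇑(QM k F a b))))
      (Subgroup.closure ({A', B'} : Set ↥(Cfsg.Omega F ⇑(QM k F a b))))
      = Subgroup.closure ({QuotientGroup.mk A', QuotientGroup.mk B'} :
          Set (Cfsg.POmega F ⇑(QM k F a b))) := by
    rw [MonoidHom.map_closure, Set.image_pair]
    rfl
  rw [← hmap2, htop, Subgroup.map_top_of_surjective _ (QuotientGroup.mk'_surjective _)]

/-- **S2415 from the packages.** -/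
theorem s2415_of (hEB : PkgEB.{u}) (hGens : PkgGens3.{u}) (hLevi : PkgLevi.{u})
    (hLX : PkgLeviX.{u}) (hLFix : PkgLeviFix.{u}) (hLOm : PkgLeviOm.{u}) (hComm : PkgComm.{u})
    (hUB : PkgUBig.{u}) (hU2 : PkgU2.{u}) (hU3 : PkgU3.{u}) (hY : PkgY.{u}) (hZ : PkgZ.{u})
    (hW : PkgW.{u}) (hRad : PkgRad.{u}) (hTrans : PkgTrans.{u}) (hBridge : PkgBridge.{u})
    (F : Type u) [Field F] [Fintype F] (m : ℕ) (hm : 4 ≤ m) (a b : F)
    (hab : ∀ z₁ z₂ : F, z₁ ^ 2 + a * z₁ * z₂ + b * z₂ ^ 2 = 0 → z₁ = 0 ∧ z₂ = 0) :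
    ∃ g h : Cfsg.POmega F (Cfsg.quadFormMinus (m - 1) F a b),
      Subgroup.closure ({g, h} : Set (Cfsg.POmega F (Cfsg.quadFormMinus (m - 1) F a b))) = ⊤ :=
  twoGen_congr _ _ (QM_coe (k := m - 1) a b)
    (main_of hEB hGens hLevi hLX hLFix hLOm hComm hUB hU2 hU3 hY hZ hW hRad hTrans hBridge
      F (m - 1) (by omega) a b hab)

end Cfsg.Agent.Lib.Helper77.OMG
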